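import Mathlib

/-!
Poisson summation for Gaussian functions on `ℤ ^ n`.
-/

set_option autoImplicit false

namespace Cfsg.Agent.Lib.Theta

open MeasureTheory Filter Set Matrix
open scoped Real Topology

variable {n : ℕ}

/-- The quadratic form `|M u| ^ 2`. -/
noncomputable def qM (M : Matrix (Fin n) (Fin n) ℝ) (u : Fin n → ℝ) : ℝ := ∑ i, (M *ᵥ u) i ^ 2

/-- The inclusion of the integral vectors. -/
def toR (x : Fin n → ℤ) : Fin n → ℝ := fun i => (x i : ℝ)

theorem qM_nonneg (M : Matrix (Fin n) (Fin n) ℝ) (u : Fin n → ℝ) : 0 ≤ qM M u :=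
  Finset.sum_nonneg fun _ _ => sq_nonneg _

theorem continuous_qM (M : Matrix (Fin n) (Fin n) ℝ) : Continuous (qM M) := by
  unfold qM Matrix.mulVec dotProduct
  fun_prop

theorem qM_add_ge (M : Matrix (Fin n) (Fin n) ℝ) (u x : Fin n → ℝ) :
    qM M x / 2 - qM M u ≤ qM M (u + x) := by
  unfold qM
  rw [Finset.sum_div, ← Finset.sum_sub_distrib]
  refine Finset.sum_le_sum fun i _ => ?_
  rw [Matrix.mulVec_add, Pi.add_apply]
  nlinarith [sq_nonneg ((M *ᵥ x) i + 2 * (M *ᵥ u) i)]

theorem sq_le_qM (M : Matrix (Fin n) (Fin n) ℝ) (hM : M.det ≠ 0) :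
    ∃ C : ℝ, 0 < C ∧ ∀ u : Fin n → ℝ, C * ∑ i, u i ^ 2 ≤ qM M u := by
  let N := M⁻¹
  have hN : ∀ u, N *ᵥ (M *ᵥ u) = u := fun u => by
    rw [Matrix.mulVec_mulVec, Matrix.nonsing_inv_mul _ (isUnit_iff_ne_zero.2 hM), Matrix.one_mulVec]
  have h0 : 0 ≤ ∑ i, ∑ j, N i j ^ 2 := Finset.sum_nonneg fun i _ => Finset.sum_nonneg fun j _ => sq_nonneg _
  refine ⟨(1 + ∑ i, ∑ j, N i j ^ 2)⁻¹, by positivity, fun u => ?_⟩
  rw [inv_mul_le_iff₀ (by positivity)]
  calc ∑ i, u i ^ 2 = ∑ i, (∑ j, N i j * (M *ᵥ u) j) ^ 2 :=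
        Finset.sum_congr rfl fun i _ => by rw [show ∑ j, N i j * (M *ᵥ u) j = u i from congrFun (hN u) i]
    _ ≤ ∑ i, (∑ j, N i j ^ 2) * qM M u :=
        Finset.sum_le_sum fun i _ => Finset.sum_mul_sq_le_sq_mul_sq Finset.univ _ _
    _ ≤ (1 + ∑ i, ∑ j, N i j ^ 2) * qM M u := by
        rw [← Finset.sum_mul]
        exact mul_le_mul_of_nonneg_right (by linarith) (qM_nonneg _ _)

theorem summable_exp_neg_sq {a : ℝ} (ha : 0 < a) :
    Summable fun k : ℤ => Real.exp (-a * (k : ℝ) ^ 2) := by
  have h : Summable fun k : ℕ => Real.exp (-a * (k : ℝ) ^ 2) :=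
    (Real.summable_exp_nat_mul_iff.2 (neg_lt_zero.2 ha)).of_nonneg_of_le (fun _ => (Real.exp_pos _).le)
      fun k => by
        rw [Real.exp_le_exp]
        have : (k : ℝ) ≤ (k : ℝ) ^ 2 := by exact_mod_cast Nat.le_self_pow two_ne_zero k
        nlinarith
  exact Summable.of_nat_of_neg (by simpa using h) (by simpa using h)

theorem summable_exp_neg_sum_sq : ∀ (n : ℕ) {a : ℝ}, 0 < a →
    Summable fun x : Fin n → ℤ => Real.exp (-a * ∑ i, (x i : ℝ) ^ 2)
  | 0, _, _ => Summable.of_finite
  | n + 1, a, ha => by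
    have h := (summable_exp_neg_sq ha).mul_of_nonneg (summable_exp_neg_sum_sq n ha)
      (fun _ => (Real.exp_pos _).le) (fun _ => (Real.exp_pos _).le)
    rw [← (Fin.consEquiv fun _ : Fin (n + 1) => ℤ).summable_iff]
    refine h.congr fun x => ?_
    rw [Function.comp_apply, ← Real.exp_add, ← mul_add]
    simp [Fin.consEquiv, Fin.sum_univ_succ]

theorem summable_gauss (M : Matrix (Fin n) (Fin n) ℝ) (hM : M.det ≠ 0) {a : ℝ} (ha : 0 < a) :
    Summable fun x : Fin n → ℤ => Real.exp (-a * qM M (toR x)) := by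
  obtain ⟨C, hC, hle⟩ := sq_le_qM M hM
  refine (summable_exp_neg_sum_sq n (mul_pos ha hC)).of_nonneg_of_le (fun _ => (Real.exp_pos _).le) fun x => ?_
  rw [Real.exp_le_exp]
  have := mul_le_mul_of_nonneg_left (hle (toR x)) ha.le
  simp only [toR] at this ⊢
  nlinarith

/-- The translates of the Gaussian are summable uniformly on compact sets. -/
theorem exists_bound (M : Matrix (Fin n) (Fin n) ℝ) (hM : M.det ≠ 0) {a : ℝ} (ha : 0 < a)
    {K : Set (Fin n → ℝ)} (hK : IsCompact K) :
    ∃ v : (Fin n → ℤ) → ℝ, Summable v ∧ ∀ x, ∀ u ∈ K, Real.exp (-a * qM M (u + toR x)) ≤ v x := by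
  obtain ⟨R, hR⟩ := hK.bddAbove_image (continuous_qM M).continuousOn
  refine ⟨fun x => Real.exp (a * R) * Real.exp (-(a / 2) * qM M (toR x)),
    (summable_gauss M hM (half_pos ha)).mul_left _, fun x u hu => ?_⟩
  show _ ≤ Real.exp (a * R) * Real.exp (-(a / 2) * qM M (toR x))
  rw [← Real.exp_add, Real.exp_le_exp]
  have h1 := qM_add_ge M u (toR x)
  have h2 : qM M u ≤ R := hR ⟨u, hu, rfl⟩
  nlinarith

theorem toR_add (x y : Fin n → ℤ) : toR (x + y) = toR x + toR y := by
  ext i; simp [toR]

/-- **Poisson summation** for a Gaussian on `ℤ ^ n`. -/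
theorem poisson (M : Matrix (Fin n) (Fin n) ℝ) (hM : |M.det| = 1) {t : ℝ} (ht : 0 < t) :
    ∑' x : Fin n → ℤ, Complex.exp (-(π * t : ℝ) * qM M (toR x)) =
      ((π : ℂ) / (π * t : ℝ)) ^ ((n : ℂ) / 2) *
        ∑' m : Fin n → ℤ, Complex.exp (-(π / t : ℝ) * qM (M⁻¹)ᵀ (toR m)) := by
  classical
  have hdet : M.det ≠ 0 := fun h => by rw [h, abs_zero] at hM; exact zero_ne_one hM
  have ha : 0 < π * t := mul_pos Real.pi_pos ht
  let g : (Fin n → ℝ) → ℂ := fun u => Complex.exp (-(π * t : ℝ) * qM M u)
  have hg : Continuous g := by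
    have := continuous_qM M
    fun_prop
  have hgn : ∀ u, ‖g u‖ = Real.exp (-(π * t) * qM M u) := fun u => by
    simp only [g, Complex.norm_exp]
    norm_cast
  let F : (Fin n → ℝ) → ℂ := fun u => ∑' x : Fin n → ℤ, g (u + toR x)
  have hFc : Continuous F := by
    refine continuous_iff_continuousAt.2 fun u₀ => ?_
    obtain ⟨v, hv, hle⟩ := exists_bound M hdet ha (isCompact_closedBall u₀ 1)
    refine (continuousOn_tsum (fun x => (hg.comp (by fun_prop)).continuousOn) hv
      fun x u hu => ?_).continuousAt (Metric.closedBall_mem_nhds u₀ one_pos)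
    rw [Function.comp_apply, hgn]
    exact hle x u hu
  have hper : ∀ u (y : Fin n → ℤ), F (u + toR y) = F u := fun u y => by
    show ∑' x : Fin n → ℤ, g (u + toR y + toR x) = ∑' x : Fin n → ℤ, g (u + toR x)
    rw [← (Equiv.addLeft y).tsum_eq fun x : Fin n → ℤ => g (u + toR x)]
    refine tsum_congr fun x => ?_
    rw [Equiv.coe_addLeft, toR_add, add_assoc]
  -- descend to the torus
  let mk : (Fin n → ℝ) → UnitAddTorus (Fin n) := Pi.map fun _ => fun r : ℝ => (r : UnitAddCircle)
  have hmk : IsOpenQuotientMap mk := IsOpenQuotientMap.piMap fun _ => QuotientAddGroup.isOpenQuotientMap_mk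
  let s : UnitAddTorus (Fin n) → (Fin n → ℝ) := fun p i => (AddCircle.equivIoc 1 0 (p i)).1
  have hs : ∀ u, F (s (mk u)) = F u := by
    intro u
    have h : ∀ i, ∃ k : ℤ, s (mk u) i = u i + k := fun i => by
      have e : ((s (mk u) i : ℝ) : UnitAddCircle) = (u i : UnitAddCircle) :=
        (AddCircle.equivIoc (1 : ℝ) 0).symm_apply_apply _
      obtain ⟨k, hk⟩ := AddSubgroup.mem_zmultiples_iff.1 (QuotientAddGroup.eq.1 e.symm)
      exact ⟨k, by rw [zsmul_eq_mul, mul_one] at hk; linarith⟩
    choose k hk using h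
    rw [show s (mk u) = u + toR k from funext hk, hper]
  have hFbc : Continuous (F ∘ s) := by
    rw [hmk.isQuotientMap.continuous_iff, show (F ∘ s) ∘ mk = F from funext hs]
    exact hFc
  let Fb : C(UnitAddTorus (Fin n), ℂ) := ⟨F ∘ s, hFbc⟩
  -- the Fourier coefficients
  let e : (Fin n → ℤ) → (Fin n → ℝ) → ℂ := fun m u => UnitAddTorus.mFourier (-m) (mk u)
  have hec : ∀ m, Continuous (e m) := fun m => (UnitAddTorus.mFourier (-m)).continuous.comp hmk.continuous
  have hen : ∀ m u, ‖e m u‖ = 1 := fun m u => by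
    simp only [e, UnitAddTorus.mFourier, ContinuousMap.coe_mk, norm_prod, fourier_apply, Circle.norm_coe,
      Finset.prod_const_one]
  have heper : ∀ m u (y : Fin n → ℤ), e m (u + toR y) = e m u := fun m u y => by
    refine congrArg (UnitAddTorus.mFourier (-m)) (funext fun i => ?_)
    show ((u i + (y i : ℝ) : ℝ) : UnitAddCircle) = (u i : UnitAddCircle)
    rw [QuotientAddGroup.eq]
    exact AddSubgroup.mem_zmultiples_iff.2 ⟨-y i, by simp⟩
  have heexp : ∀ m u, e m u = Complex.exp (∑ i, -(2 * π * Complex.I * (m i : ℂ)) * (u i : ℂ)) := fun m u => by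
    show ∏ i, fourier ((-m) i) ((u i : ℝ) : UnitAddCircle) = _
    rw [Complex.exp_sum]
    refine Finset.prod_congr rfl fun i _ => ?_
    rw [fourier_coe_apply]
    congr 1
    simp only [Pi.neg_apply, Int.cast_neg, Complex.ofReal_one, div_one]
    ring
  let cube : (Fin n → ℤ) → Set (Fin n → ℝ) := fun y => {u | ∀ i, u i ∈ Ioc ((y i : ℝ)) ((y i : ℝ) + 1)}
  have hcube : ∀ y, MeasurableSet (cube y) := fun y =>
    MeasurableSet.univ_pi' fun i => measurableSet_Ioc
  have hdisj : Pairwise (Function.onFun Disjoint cube) := fun y z hyz => Set.disjoint_left.2 fun u h1 h2 => by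
    obtain ⟨i, hi⟩ := Function.ne_iff.1 hyz
    obtain ⟨a1, a2⟩ := h1 i
    obtain ⟨b1, b2⟩ := h2 i
    apply hi
    have e1 : (y i : ℝ) < z i + 1 := lt_of_lt_of_le a1 b2
    have e2 : (z i : ℝ) < y i + 1 := lt_of_lt_of_le b1 a2
    have e1' : y i < z i + 1 := by exact_mod_cast e1
    have e2' : z i < y i + 1 := by exact_mod_cast e2
    omega
  have hunion : ⋃ y, cube y = univ := by
    refine eq_univ_of_forall fun u => mem_iUnion.2 ⟨fun i => ⌈u i⌉ - 1, fun i => ?_⟩
    push_cast
    exact ⟨by linarith [Int.ceil_lt_add_one (u i)], by linarith [Int.le_ceil (u i)]⟩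
  have htrans : ∀ (h : (Fin n → ℝ) → ℂ) (x : Fin n → ℤ),
      ∫ u in cube 0, h (u + toR x) = ∫ u in cube x, h u := fun h x => by
    have hp : MeasurePreserving (fun u : Fin n → ℝ => u + toR x) volume volume :=
      measurePreserving_add_right volume _
    rw [← hp.setIntegral_preimage_emb (MeasurableEquiv.addRight (toR x)).measurableEmbedding h (cube x)]
    congr 1
    congr 1
    ext u
    simp only [cube, Set.mem_preimage, Set.mem_setOf_eq, Pi.zero_apply, Int.cast_zero, Pi.add_apply, toR, mem_Ioc]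
    exact forall_congr' fun i => by constructor <;> rintro ⟨h1, h2⟩ <;> constructor <;> linarith
  -- the Gaussian integral
  let L := Matrix.toLin' M
  have hmp : MeasurePreserving L volume volume := by
    refine ⟨L.continuous_of_finiteDimensional.measurable, ?_⟩
    rw [Real.map_matrix_volume_pi_eq_smul_volume_pi hdet, abs_inv, hM, inv_one, ENNReal.ofReal_one, one_smul]
  have hLemb : MeasurableEmbedding L :=
    L.continuous_of_finiteDimensional.measurableEmbedding (by
      intro u v h
      have := congrArg (M⁻¹ *ᵥ ·) h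
      simpa [L, Matrix.mulVec_mulVec, Matrix.nonsing_inv_mul _ (isUnit_iff_ne_zero.2 hdet)] using this)
  let cc : (Fin n → ℤ) → Fin n → ℂ := fun m i => -(2 * π * Complex.I) * (((M⁻¹)ᵀ *ᵥ toR m) i : ℂ)
  have hint_eq : ∀ m, (fun u => e m u * g u) =
      (fun w => Complex.exp (-(π * t : ℝ) * ∑ i, (w i : ℂ) ^ 2 + ∑ i, cc m i * w i)) ∘ L := by
    intro m
    funext u
    rw [Function.comp_apply, heexp, ← Complex.exp_add, add_comm]
    congr 1
    congr 1
    · simp only [L, qM, Matrix.toLin'_apply]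
      push_cast
      rfl
    · have e1 : ((M⁻¹)ᵀ *ᵥ toR m) ⬝ᵥ (M *ᵥ u) = toR m ⬝ᵥ u := by
        rw [Matrix.dotProduct_mulVec, ← Matrix.mulVec_transpose, Matrix.mulVec_mulVec, ← Matrix.transpose_mul,
          Matrix.nonsing_inv_mul _ (isUnit_iff_ne_zero.2 hdet), Matrix.transpose_one, Matrix.one_mulVec]
      calc ∑ i, -(2 * π * Complex.I * (m i : ℂ)) * (u i : ℂ)
          = -(2 * π * Complex.I) * ((toR m ⬝ᵥ u : ℝ) : ℂ) := by
            rw [dotProduct, Complex.ofReal_sum, Finset.mul_sum]
            refine Finset.sum_congr rfl fun i _ => ?_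
            simp [toR]
            ring
        _ = ∑ i, cc m i * ((L u) i : ℂ) := by
            rw [← e1, dotProduct, Complex.ofReal_sum, Finset.mul_sum]
            refine Finset.sum_congr rfl fun i _ => ?_
            simp only [cc, L, Matrix.toLin'_apply, Complex.ofReal_mul]
            ring
  have hb : 0 < ((π * t : ℝ) : ℂ).re := by simpa using ha
  have hint : ∀ m, Integrable (fun u => e m u * g u) := fun m => by
    rw [hint_eq m, hmp.integrable_comp_emb hLemb]
    exact GaussianFourier.integrable_cexp_neg_mul_sum_add hb _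
  have hval : ∀ m, ∫ u, e m u * g u =
      ((π : ℂ) / (π * t : ℝ)) ^ ((n : ℂ) / 2) * Complex.exp (-(π / t : ℝ) * qM (M⁻¹)ᵀ (toR m)) := fun m => by
    rw [show (fun u => e m u * g u) = _ from hint_eq m]
    unfold Function.comp
    beta_reduce
    rw [hmp.integral_comp hLemb
      (fun w => Complex.exp (-(π * t : ℝ) * ∑ i, (w i : ℂ) ^ 2 + ∑ i, cc m i * w i)),
      GaussianFourier.integral_cexp_neg_mul_sum_add hb, Fintype.card_fin]
    congr 1
    congr 1
    simp only [cc, qM, Finset.sum_div]
    push_cast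
    rw [Finset.mul_sum]
    refine Finset.sum_congr rfl fun i _ => ?_
    have : (t : ℂ) ≠ 0 := by exact_mod_cast ht.ne'
    have : (π : ℂ) ≠ 0 := by exact_mod_cast Real.pi_ne_zero
    field_simp
    rw [Complex.I_sq]
    ring
  have hcoef : ∀ m, UnitAddTorus.mFourierCoeff Fb m = ∫ u, e m u * g u := by
    intro m
    rw [UnitAddTorus.mFourierCoeff_eq_integral Fb m (fun _ => 0)]
    have h0 : {u : Fin n → ℝ | ∀ i, u i ∈ Ioc ((fun _ => (0 : ℝ)) i) ((fun _ => (0 : ℝ)) i + 1)} = cube 0 := by
      simp [cube]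
    rw [h0]
    calc ∫ u in cube 0, UnitAddTorus.mFourier (-m) (mk u) • Fb (mk u)
        = ∫ u in cube 0, ∑' x, e m (u + toR x) * g (u + toR x) := by
          refine setIntegral_congr_fun (hcube 0) fun u _ => ?_
          show e m u * F (s (mk u)) = _
          rw [hs]
          simp only [heper, F, tsum_mul_left]
      _ = ∑' x, ∫ u in cube 0, e m (u + toR x) * g (u + toR x) := by
          obtain ⟨v, hv, hle⟩ := exists_bound M hdet ha (isCompact_closedBall (0 : Fin n → ℝ) 1)
          have hsub : cube 0 ⊆ Metric.closedBall 0 1 := fun u hu => by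
            rw [mem_closedBall_zero_iff, pi_norm_le_iff_of_nonneg zero_le_one]
            intro i
            obtain ⟨h1, h2⟩ := hu i
            simp only [Pi.zero_apply, Int.cast_zero, zero_add] at h1 h2
            rw [Real.norm_eq_abs, abs_le]
            constructor <;> linarith
          have hfin : volume (cube 0) < ⊤ :=
            (measure_mono hsub).trans_lt (isCompact_closedBall _ _).measure_lt_top
          have hcx : ∀ x, Continuous fun u => e m (u + toR x) * g (u + toR x) := fun x =>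
            ((hec m).comp (by fun_prop)).mul (hg.comp (by fun_prop))
          refine (integral_tsum_of_summable_integral_norm (fun x => ?_) ?_).symm
          · exact ((hcx x).continuousOn.integrableOn_compact (isCompact_closedBall _ _)).mono_set hsub
          · refine (hv.mul_left ((volume (cube 0)).toReal)).of_nonneg_of_le
              (fun x => integral_nonneg fun u => norm_nonneg _) fun x => ?_
            have h := setIntegral_mono_on
              (((hcx x).norm.continuousOn.integrableOn_compact (isCompact_closedBall _ _)).mono_set hsub)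
              (integrableOn_const hfin.ne) (hcube 0) (fun u hu => show ‖e m (u + toR x) * g (u + toR x)‖ ≤ v x by
                rw [norm_mul, hen, one_mul, hgn]; exact hle x u (hsub hu))
            rwa [setIntegral_const, smul_eq_mul] at h
      _ = ∑' x, ∫ u in cube x, e m u * g u := tsum_congr fun x => htrans (fun u => e m u * g u) x
      _ = ∫ u, e m u * g u := by
          rw [← integral_iUnion hcube hdisj (hint m).integrableOn, hunion, setIntegral_univ]
  have hsum : Summable (UnitAddTorus.mFourierCoeff Fb) := by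
    simp only [funext hcoef, hval]
    refine Summable.mul_left _ (Summable.of_norm ?_)
    have hdN : ((M⁻¹)ᵀ).det ≠ 0 := by
      rw [Matrix.det_transpose, Matrix.det_nonsing_inv]
      simpa using hdet
    refine (summable_gauss _ hdN (div_pos Real.pi_pos ht)).congr fun m => ?_
    rw [Complex.norm_exp]
    norm_cast
  have hF := (UnitAddTorus.hasSum_mFourier_series_apply_of_summable hsum (mk 0)).tsum_eq
  calc ∑' x : Fin n → ℤ, Complex.exp (-(π * t : ℝ) * qM M (toR x)) = F 0 :=
        tsum_congr fun x => by simp only [g, zero_add]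
    _ = Fb (mk 0) := (hs 0).symm
    _ = ∑' m, UnitAddTorus.mFourierCoeff Fb m • UnitAddTorus.mFourier m (mk 0) := hF.symm
    _ = _ := by
        rw [← tsum_mul_left]
        refine tsum_congr fun m => ?_
        rw [hcoef, hval, smul_eq_mul]
        have : UnitAddTorus.mFourier m (mk 0) = 1 := by
          show ∏ i, fourier (m i) (((0 : Fin n → ℝ) i : ℝ) : UnitAddCircle) = 1
          simp
        rw [this, mul_one]

end Cfsg.Agent.Lib.Theta
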