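import Mathlib
import Cfsg.Agent.Lib.Theta.Poisson

/-!
The theta series of a positive unimodular form, and its inversion formula.
-/

set_option autoImplicit false

namespace Cfsg.Agent.Lib.Theta

open Filter Set Matrix Complex
open scoped Real Topology MatrixOrder

variable {n : ℕ}

/-- The value of the integral form `B` at `x`. -/
def qZ (B : Matrix (Fin n) (Fin n) ℤ) (x : Fin n → ℤ) : ℤ := x ⬝ᵥ (B *ᵥ x)

/-- The real matrix of `B`. -/
noncomputable def realMat (B : Matrix (Fin n) (Fin n) ℤ) : Matrix (Fin n) (Fin n) ℝ :=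
  B.map (Int.cast : ℤ → ℝ)

theorem realMat_mulVec (B : Matrix (Fin n) (Fin n) ℤ) (x : Fin n → ℤ) :
    realMat B *ᵥ toR x = toR (B *ᵥ x) := by
  ext i
  simp [realMat, toR, Matrix.mulVec, dotProduct]

theorem toR_dotProduct (x y : Fin n → ℤ) : toR x ⬝ᵥ toR y = ((x ⬝ᵥ y : ℤ) : ℝ) := by
  simp [toR, dotProduct]

theorem det_realMat (B : Matrix (Fin n) (Fin n) ℤ) : (realMat B).det = (B.det : ℝ) := by
  rw [realMat]
  exact (RingHom.map_det (Int.castRingHom ℝ) B).symm

theorem exists_gram (B : Matrix (Fin n) (Fin n) ℤ) (hsymm : B.IsSymm) (hdet : B.det = 1)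
    (hpos : ∀ x, 0 ≤ qZ B x) :
    ∃ M : Matrix (Fin n) (Fin n) ℝ, realMat B = Mᵀ * M ∧ |M.det| = 1 := by
  have hH : (realMat B).IsHermitian := by
    rw [Matrix.IsHermitian, Matrix.conjTranspose_eq_transpose_of_trivial, realMat,
      ← Matrix.transpose_map, hsymm.eq]
  have hden : DenseRange (fun q : Fin n → ℚ => fun i => ((q i : ℚ) : ℝ)) :=
    DenseRange.piMap fun _ => Rat.denseRange_cast
  have hnn : ∀ u : Fin n → ℝ, 0 ≤ u ⬝ᵥ (realMat B *ᵥ u) := by
    intro u
    refine hden.induction_on u (isClosed_le continuous_const ?_) fun q => ?_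
    · unfold Matrix.mulVec dotProduct
      fun_prop
    · let D : ℕ := ∏ i, (q i).den
      have hD : (D : ℝ) ≠ 0 := by
        exact_mod_cast Finset.prod_ne_zero_iff.2 fun i _ => (q i).den_ne_zero
      have hdvd : ∀ i, (q i).den ∣ D := fun i => Finset.dvd_prod_of_mem _ (Finset.mem_univ i)
      choose e he using hdvd
      let x : Fin n → ℤ := fun i => (q i).num * (e i : ℤ)
      have hx : (fun i => ((q i : ℚ) : ℝ)) = (D : ℝ)⁻¹ • toR x := by
        funext i
        rw [Pi.smul_apply, smul_eq_mul, eq_inv_mul_iff_mul_eq₀ hD, Rat.cast_def, he i]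
        simp only [x, toR, Int.cast_mul, Int.cast_natCast, Nat.cast_mul]
        field_simp
      rw [hx, Matrix.mulVec_smul, realMat_mulVec, dotProduct_smul, smul_dotProduct, toR_dotProduct,
        smul_eq_mul, smul_eq_mul]
      have : (0 : ℝ) ≤ (qZ B x : ℝ) := by exact_mod_cast hpos x
      have : (0 : ℝ) ≤ (D : ℝ)⁻¹ := by positivity
      exact mul_nonneg this (mul_nonneg this (by assumption))
  have hps : (realMat B).PosSemidef :=
    Matrix.posSemidef_iff_dotProduct_mulVec.2 ⟨hH, fun u => by simpa using hnn u⟩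
  obtain ⟨M, hM⟩ := CStarAlgebra.nonneg_iff_eq_star_mul_self.mp hps.nonneg
  have hM' : realMat B = Mᵀ * M := by
    rw [hM, Matrix.star_eq_conjTranspose, Matrix.conjTranspose_eq_transpose_of_trivial]
  refine ⟨M, hM', ?_⟩
  have h := congrArg Matrix.det hM'
  rw [det_realMat, hdet, Int.cast_one, Matrix.det_mul, Matrix.det_transpose] at h
  rcases mul_self_eq_one_iff.1 h.symm with h' | h' <;> simp [h']

/-- The term of the theta series at `x`. -/
noncomputable def term (B : Matrix (Fin n) (Fin n) ℤ) (x : Fin n → ℤ) (z : ℂ) : ℂ :=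
  Complex.exp (π * Complex.I * (qZ B x : ℂ) * z)

/-- The theta series of `B`. -/
noncomputable def theta (B : Matrix (Fin n) (Fin n) ℤ) (z : ℂ) : ℂ := ∑' x, term B x z

theorem norm_term (B : Matrix (Fin n) (Fin n) ℤ) (x : Fin n → ℤ) (z : ℂ) :
    ‖term B x z‖ = Real.exp (-π * z.im * qZ B x) := by
  rw [term, Complex.norm_exp]
  congr 1
  simp
  ring

theorem qM_toR {B : Matrix (Fin n) (Fin n) ℤ} {M : Matrix (Fin n) (Fin n) ℝ}
    (hM : realMat B = Mᵀ * M) (x : Fin n → ℤ) : qM M (toR x) = (qZ B x : ℝ) := by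
  have h : qM M (toR x) = (M *ᵥ toR x) ⬝ᵥ (M *ᵥ toR x) := by simp [qM, dotProduct, sq]
  rw [h, qZ, ← toR_dotProduct, ← realMat_mulVec, hM, ← Matrix.mulVec_mulVec,
    Matrix.dotProduct_mulVec (toR x), Matrix.vecMul_transpose]

theorem summable_term (B : Matrix (Fin n) (Fin n) ℤ) (hsymm : B.IsSymm) (hdet : B.det = 1)
    (hpos : ∀ x, 0 ≤ qZ B x) {a : ℝ} (ha : 0 < a) :
    Summable fun x : Fin n → ℤ => Real.exp (-a * qZ B x) := by
  obtain ⟨M, hM, hd⟩ := exists_gram B hsymm hdet hpos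
  refine (summable_gauss M (fun h => ?_) ha).congr fun x => by rw [qM_toR hM]
  rw [h, abs_zero] at hd
  exact zero_ne_one hd

theorem theta_inv (B : Matrix (Fin n) (Fin n) ℤ) (hsymm : B.IsSymm) (hdet : B.det = 1)
    (hpos : ∀ x, 0 ≤ qZ B x) {t : ℝ} (ht : 0 < t) :
    theta B (t * Complex.I) = ((π : ℂ) / (π * t : ℝ)) ^ ((n : ℂ) / 2) * theta B ((t⁻¹ : ℝ) * Complex.I) := by
  obtain ⟨M, hM, hd⟩ := exists_gram B hsymm hdet hpos
  have hd0 : IsUnit M.det := isUnit_iff_ne_zero.2 fun h => by rw [h, abs_zero] at hd; exact zero_ne_one hd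
  have hB : IsUnit B.det := by rw [hdet]; exact isUnit_one
  let e : (Fin n → ℤ) ≃ (Fin n → ℤ) :=
    { toFun := fun x => B *ᵥ x
      invFun := fun x => B⁻¹ *ᵥ x
      left_inv := fun x => by
        show B⁻¹ *ᵥ (B *ᵥ x) = x
        rw [Matrix.mulVec_mulVec, Matrix.nonsing_inv_mul _ hB, Matrix.one_mulVec]
      right_inv := fun x => by
        show B *ᵥ (B⁻¹ *ᵥ x) = x
        rw [Matrix.mulVec_mulVec, Matrix.mul_nonsing_inv _ hB, Matrix.one_mulVec] }
  have h1 : ∀ (s : ℝ) (x : Fin n → ℤ),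
      Complex.exp (-(π * s : ℝ) * qM M (toR x)) = term B x (s * Complex.I) := fun s x => by
    rw [qM_toR hM, term]
    congr 1
    push_cast
    linear_combination (-((π : ℂ) * s * (qZ B x : ℂ))) * Complex.I_mul_I
  have h2 : ∀ x, qM (M⁻¹)ᵀ (toR (e x)) = qM M (toR x) := fun x => by
    show qM (M⁻¹)ᵀ (toR (B *ᵥ x)) = _
    rw [← realMat_mulVec, hM]
    simp only [qM]
    rw [Matrix.mulVec_mulVec, ← Matrix.mul_assoc, ← Matrix.transpose_mul, Matrix.mul_nonsing_inv _ hd0,
      Matrix.transpose_one, Matrix.one_mul]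
  calc theta B (t * Complex.I) = ∑' x, Complex.exp (-(π * t : ℝ) * qM M (toR x)) :=
        tsum_congr fun x => (h1 t x).symm
    _ = _ := by
      rw [poisson M hd ht]
      congr 1
      rw [← e.tsum_eq]
      refine tsum_congr fun x => ?_
      rw [h2, div_eq_mul_inv, h1]

theorem differentiableOn_theta (B : Matrix (Fin n) (Fin n) ℤ) (hsymm : B.IsSymm) (hdet : B.det = 1)
    (hpos : ∀ x, 0 ≤ qZ B x) : DifferentiableOn ℂ (theta B) {z | 0 < z.im} := by
  intro z hz
  have hz' : 0 < z.im := hz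
  have hopen : IsOpen {w : ℂ | z.im / 2 < w.im} := isOpen_lt continuous_const Complex.continuous_im
  have h : DifferentiableOn ℂ (theta B) {w : ℂ | z.im / 2 < w.im} := by
    refine differentiableOn_tsum_of_summable_norm
      (summable_term B hsymm hdet hpos (mul_pos Real.pi_pos (half_pos hz'))) (fun x => ?_) hopen fun x w hw => ?_
    · unfold term
      fun_prop
    · rw [norm_term, Real.exp_le_exp]
      have : (0 : ℝ) ≤ (qZ B x : ℝ) := by exact_mod_cast hpos x
      have hw' : z.im / 2 < w.im := hw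
      nlinarith [mul_nonneg Real.pi_pos.le this]
  exact (h.differentiableAt (hopen.mem_nhds (show z.im / 2 < z.im by linarith))).differentiableWithinAt

end Cfsg.Agent.Lib.Theta
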