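import Mathlib
import Cfsg.Agent.Lib.Theta.Lattice

/-!
The theta series of an even unimodular lattice of rank 24 is a modular form of weight 12.
-/

set_option autoImplicit false

namespace Cfsg.Agent.Lib.Theta

open Filter Set Matrix Complex UpperHalfPlane ModularForm MatrixGroups
open scoped Real Topology

variable {B : Matrix (Fin 24) (Fin 24) ℤ}

/-- Positive even unimodular forms of rank 24. -/
structure Even24 (B : Matrix (Fin 24) (Fin 24) ℤ) : Prop where
  symm : B.IsSymm
  det : B.det = 1
  pos : ∀ x, x ≠ 0 → 0 < qZ B x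
  even : ∀ x, (2 : ℤ) ∣ qZ B x

theorem Even24.nonneg (h : Even24 B) (x : Fin 24 → ℤ) : 0 ≤ qZ B x := by
  rcases eq_or_ne x 0 with rfl | hx
  · simp [qZ]
  · exact (h.pos x hx).le

theorem Even24.inv_axis (h : Even24 B) {t : ℝ} (ht : 0 < t) :
    theta B (-((t : ℂ) * Complex.I)⁻¹) = ((t : ℂ) * Complex.I) ^ 12 * theta B (t * Complex.I) := by
  have e1 : -((t : ℂ) * Complex.I)⁻¹ = ((t⁻¹ : ℝ) : ℂ) * Complex.I := by
    rw [mul_inv, Complex.inv_I]
    push_cast
    ring
  have e2 : ((π : ℂ) / (π * t : ℝ)) ^ (((24 : ℕ) : ℂ) / 2) = ((t : ℂ)⁻¹) ^ 12 := by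
    rw [show ((24 : ℕ) : ℂ) / 2 = ((12 : ℕ) : ℂ) by norm_num, Complex.cpow_natCast]
    congr 1
    have : (π : ℂ) ≠ 0 := by exact_mod_cast Real.pi_ne_zero
    have : (t : ℂ) ≠ 0 := by exact_mod_cast ht.ne'
    push_cast
    field_simp
  have e3 : ((t : ℂ) * Complex.I) ^ 12 = (t : ℂ) ^ 12 := by
    rw [mul_pow, show (12 : ℕ) = 4 * 3 from rfl, pow_mul Complex.I, Complex.I_pow_four, one_pow, mul_one]
  rw [e1, e3, theta_inv B h.symm h.det h.nonneg ht, e2, ← mul_assoc, ← mul_pow,
    mul_inv_cancel₀ (show (t : ℂ) ≠ 0 by exact_mod_cast ht.ne'), one_pow, one_mul]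

theorem Even24.inversion (h : Even24 B) {z : ℂ} (hz : 0 < z.im) :
    theta B (-z⁻¹) = z ^ 12 * theta B z := by
  let U : Set ℂ := {w | 0 < w.im}
  have hUo : IsOpen U := isOpen_lt continuous_const Complex.continuous_im
  have hd := differentiableOn_theta B h.symm h.det h.nonneg
  have hmaps : ∀ w ∈ U, -w⁻¹ ∈ U := fun w hw => by
    have hw' : 0 < w.im := hw
    show 0 < (-w⁻¹).im
    rw [Complex.neg_im, Complex.inv_im, neg_div, neg_neg]
    exact div_pos hw' (Complex.normSq_pos.2 fun e => by rw [e] at hw'; simp at hw')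
  have hG : AnalyticOnNhd ℂ (fun w => theta B (-w⁻¹) - w ^ 12 * theta B w) U := by
    refine DifferentiableOn.analyticOnNhd ?_ hUo
    refine (hd.comp ?_ hmaps).sub ((differentiableOn_id.pow 12).mul hd)
    exact (differentiableOn_id.inv fun w hw e => by
      have hw' : 0 < w.im := hw
      rw [e] at hw'
      simp at hw').neg
  have hI : Complex.I ∈ U := by simp [U]
  have hseq : Tendsto (fun k : ℕ => ((1 + 1 / ((k : ℝ) + 1) : ℝ) : ℂ) * Complex.I) atTop
      (𝓝[≠] Complex.I) := by
    refine tendsto_nhdsWithin_iff.2 ⟨?_, Eventually.of_forall fun k => ?_⟩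
    · have h1 : Tendsto (fun k : ℕ => (1 + 1 / ((k : ℝ) + 1) : ℝ)) atTop (𝓝 1) := by
        simpa using tendsto_one_div_add_atTop_nhds_zero_nat.const_add (1 : ℝ)
      simpa using ((Complex.continuous_ofReal.tendsto 1).comp h1).mul_const Complex.I
    · intro e
      have e' := congrArg Complex.im (Set.mem_singleton_iff.1 e)
      simp only [Complex.mul_im, Complex.ofReal_re, Complex.ofReal_im, Complex.I_re, Complex.I_im, mul_one,
        mul_zero, zero_mul, add_zero] at e'
      have : (0 : ℝ) < 1 / ((k : ℝ) + 1) := by positivity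
      linarith
  have hfreq : ∃ᶠ w in 𝓝[≠] Complex.I, theta B (-w⁻¹) - w ^ 12 * theta B w = 0 :=
    hseq.frequently (Frequently.of_forall fun k => sub_eq_zero.2 (h.inv_axis (by positivity)))
  have h0 := hG.eqOn_zero_of_preconnected_of_frequently_eq_zero
    (convex_halfSpace_im_gt 0).isPreconnected hI hfreq hz
  exact sub_eq_zero.1 h0

theorem Even24.periodic (h : Even24 B) (z : ℂ) : theta B (z + 1) = theta B z := by
  refine tsum_congr fun x => ?_
  obtain ⟨m, hm⟩ := h.even x
  have e : (π : ℂ) * Complex.I * (qZ B x : ℂ) * (z + 1) =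
      π * Complex.I * (qZ B x : ℂ) * z + (m : ℂ) * (2 * π * Complex.I) := by
    rw [hm]
    push_cast
    ring
  rw [term, term, e, Complex.exp_add, Complex.exp_int_mul_two_pi_mul_I, mul_one]

/-- The number of vectors with `qZ = 2 m`. -/
noncomputable def count (B : Matrix (Fin 24) (Fin 24) ℤ) (m : ℕ) : ℕ := {x | qZ B x = 2 * (m : ℤ)}.ncard

theorem Even24.level_finite (h : Even24 B) (m : ℕ) : {x | qZ B x = 2 * (m : ℤ)}.Finite := by
  have hev := (summable_term B h.symm h.det h.nonneg one_pos).tendsto_cofinite_zero.eventually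
    (gt_mem_nhds (Real.exp_pos (-(2 * (m : ℝ)))))
  refine (Filter.eventually_cofinite.1 hev).subset fun x hx => ?_
  have hx' : qZ B x = 2 * (m : ℤ) := hx
  simp [hx']

theorem Even24.hasSum (h : Even24 B) (τ : ℍ) :
    HasSum (fun m => (count B m : ℂ) • Function.Periodic.qParam 1 (τ : ℂ) ^ m) (theta B τ) := by
  have hs : Summable fun x => term B x τ := by
    refine Summable.of_norm ((summable_term B h.symm h.det h.nonneg (mul_pos Real.pi_pos τ.im_pos)).congr
      fun x => ?_)
    rw [norm_term, UpperHalfPlane.coe_im, neg_mul (π : ℝ)]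
  have hf := hs.hasSum.tsum_fiberwise fun x => (qZ B x / 2).toNat
  refine hf.congr_fun fun m => ?_
  have hset : (fun x => (qZ B x / 2).toNat) ⁻¹' {m} = {x | qZ B x = 2 * (m : ℤ)} := by
    ext x
    have h1 := h.nonneg x
    obtain ⟨j, hj⟩ := h.even x
    simp only [Set.mem_preimage, Set.mem_singleton_iff, Set.mem_setOf_eq]
    omega
  rw [hset]
  have hval : ∀ x : {x | qZ B x = 2 * (m : ℤ)},
      term B x.1 τ = Function.Periodic.qParam 1 (τ : ℂ) ^ m := fun x => by
    have hx : qZ B x.1 = 2 * (m : ℤ) := x.2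
    rw [term, Function.Periodic.qParam, ← Complex.exp_nat_mul, hx]
    congr 1
    push_cast
    ring
  rw [tsum_congr hval]
  have := (h.level_finite m).to_subtype
  rw [tsum_const, Nat.card_coe_set_eq, nsmul_eq_mul, smul_eq_mul]
  rfl

/-- The theta series as a function on the upper half plane. -/
noncomputable def thetaFun (B : Matrix (Fin 24) (Fin 24) ℤ) (τ : ℍ) : ℂ := theta B τ

theorem Even24.slash (h : Even24 B) :
    ∀ γ : SL(2, ℤ), thetaFun B ∣[(12 : ℤ)] γ = thetaFun B := by
  refine SlashInvariantForm.slash_action_generators_SL2Z ?_ ?_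
  · ext τ
    rw [ModularForm.slash_action_eq'_iff]
    simp only [thetaFun, UpperHalfPlane.modular_S_smul]
    rw [inv_neg, h.inversion τ.im_pos]
    simp [ModularGroup.S]
  · ext τ
    rw [ModularForm.slash_action_eq'_iff]
    simp only [thetaFun, UpperHalfPlane.modular_T_smul, UpperHalfPlane.coe_vadd]
    rw [Complex.ofReal_one, add_comm, h.periodic]
    simp [ModularGroup.T]

/-- The theta series as a modular form of weight 12. -/
noncomputable def Even24.form (h : Even24 B) : ModularForm 𝒮ℒ 12 where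
  toFun := thetaFun B
  slash_action_eq' A hA := by
    obtain ⟨A, rfl⟩ := hA
    exact h.slash A
  holo' := by
    rw [UpperHalfPlane.mdifferentiable_iff]
    refine (differentiableOn_theta B h.symm h.det h.nonneg).congr fun z hz => ?_
    simp [thetaFun, UpperHalfPlane.ofComplex_apply_of_im_pos hz]
  bdd_at_cusps' hc := by
    rw [Subgroup.IsArithmetic.isCusp_iff_isCusp_SL2Z] at hc
    rw [OnePoint.isBoundedAt_iff_forall_SL2Z hc]
    intro γ _
    rw [h.slash]
    exact UpperHalfPlane.isBoundedAtImInfty_of_hasSum_qExpansion one_pos h.hasSum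

theorem Even24.coeff (h : Even24 B) (m : ℕ) :
    (qExpansion 1 h.form).coeff m = (count B m : ℂ) :=
  (ModularFormClass.qExpansion_coeff_unique one_pos one_mem_strictPeriods_SL
    (f := h.form) h.hasSum m).symm

/-- The combination of Eisenstein series with constant term 1 and no linear term. -/
noncomputable def leechForm : ModularForm 𝒮ℒ 12 :=
  (7 / 12 : ℂ) • ModularForm.mcast (by decide) (E₄.pow 3) +
    (5 / 12 : ℂ) • ModularForm.mcast (by decide) (E₆.pow 2)

theorem bernoulli_six : bernoulli 6 = 1 / 42 := by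
  rw [bernoulli_eq_bernoulli'_of_ne_one (by norm_num), bernoulli'_def]
  norm_num [Finset.sum_range_succ, bernoulli'_eq_zero_of_odd, Nat.choose]

/-- The coefficients of `E₄`. -/
def e4 (m : ℕ) : ℂ := if m = 0 then 1 else 240 * (ArithmeticFunction.sigma 3 m : ℕ)

/-- The coefficients of `E₆`. -/
def e6 (m : ℕ) : ℂ := if m = 0 then 1 else -504 * (ArithmeticFunction.sigma 5 m : ℕ)

theorem coeff_E4 (m : ℕ) : (qExpansion 1 E₄).coeff m = e4 m := by
  rw [EisensteinSeries.E_qExpansion_coeff _ ⟨2, rfl⟩, e4,
    bernoulli_eq_bernoulli'_of_ne_one (by norm_num), bernoulli'_four]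
  norm_num

theorem coeff_E6 (m : ℕ) : (qExpansion 1 E₆).coeff m = e6 m := by
  rw [EisensteinSeries.E_qExpansion_coeff _ ⟨3, rfl⟩, e6, bernoulli_six]
  norm_num

theorem coeff_leechForm (m : ℕ) : (qExpansion 1 leechForm).coeff m =
    7 / 12 * (∑ p ∈ Finset.HasAntidiagonal.antidiagonal m, (∑ q ∈ Finset.HasAntidiagonal.antidiagonal p.1, e4 q.1 * e4 q.2) * e4 p.2) +
      5 / 12 * ∑ p ∈ Finset.HasAntidiagonal.antidiagonal m, e6 p.1 * e6 p.2 := by
  simp only [leechForm, FunLike.coe_add,
    ModularForm.qExpansion_add one_pos one_mem_strictPeriods_SL, map_add]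
  simp only [FunLike.coe_smul, ModularForm.qExpansion_smul one_pos one_mem_strictPeriods_SL,
    coe_mcast, ModularForm.qExpansion_pow one_pos one_mem_strictPeriods_SL]
  simp only [PowerSeries.coeff_smul, pow_succ, pow_zero, one_mul, PowerSeries.coeff_mul, coeff_E4,
    coeff_E6, smul_eq_mul]

theorem count_eq (h : Even24 B) (h2 : ∀ x, qZ B x ≠ 2) :
    count B 2 = 196560 ∧ count B 3 = 16773120 ∧ count B 4 = 398034000 := by
  have hc0 : count B 0 = 1 := by
    have : {x | qZ B x = 2 * ((0 : ℕ) : ℤ)} = {0} := by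
      ext x
      constructor
      · intro hx
        by_contra hne
        have h1 := h.pos x hne
        have hx' : qZ B x = 0 := by simpa using hx
        omega
      · rintro rfl
        simp [qZ]
    rw [count, this, Set.ncard_singleton]
  have hc1 : count B 1 = 0 := by
    rw [count, Set.ncard_eq_zero (h.level_finite 1), Set.eq_empty_iff_forall_notMem]
    intro x hx
    exact h2 x (by simpa using hx)
  have v0 : (qExpansion 1 leechForm).coeff 0 = 1 := by
    rw [coeff_leechForm]
    norm_num [Finset.Nat.antidiagonal_succ, e4, e6]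
  have v1 : (qExpansion 1 leechForm).coeff 1 = 0 := by
    rw [coeff_leechForm]
    norm_num [Finset.Nat.antidiagonal_succ, e4, e6]
  have hz : h.form - leechForm = 0 := by
    refine ModularForm.sturm_bound_levelOne_nat (k := 12) ?_
    have hq : qExpansion 1 (h.form - leechForm : ModularForm 𝒮ℒ 12) =
        qExpansion 1 h.form - qExpansion 1 leechForm := by
      simp only [FunLike.coe_sub, ModularForm.qExpansion_sub one_pos one_mem_strictPeriods_SL]
    refine lt_of_lt_of_le ?_ (PowerSeries.nat_le_order _ 2 fun i hi => ?_)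
    · norm_num
    · rw [hq, map_sub, h.coeff]
      interval_cases i
      · rw [hc0, v0]; simp
      · rw [hc1, v1]; simp
  have hform : h.form = leechForm := sub_eq_zero.1 hz
  have key : ∀ m, (count B m : ℂ) = (qExpansion 1 leechForm).coeff m := fun m => by
    rw [← hform, h.coeff]
  refine ⟨?_, ?_, ?_⟩
  · have := key 2
    rw [coeff_leechForm] at this
    norm_num [Finset.Nat.antidiagonal_succ, e4, e6, ArithmeticFunction.sigma_apply,
      show Nat.divisors 2 = {1, 2} by decide] at this
    exact_mod_cast this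
  · have := key 3
    rw [coeff_leechForm] at this
    norm_num [Finset.Nat.antidiagonal_succ, e4, e6, ArithmeticFunction.sigma_apply,
      show Nat.divisors 2 = {1, 2} by decide, show Nat.divisors 3 = {1, 3} by decide] at this
    exact_mod_cast this
  · have := key 4
    rw [coeff_leechForm] at this
    norm_num [Finset.Nat.antidiagonal_succ, e4, e6, ArithmeticFunction.sigma_apply,
      show Nat.divisors 2 = {1, 2} by decide, show Nat.divisors 3 = {1, 3} by decide,
      show Nat.divisors 4 = {1, 2, 4} by decide] at this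
    exact_mod_cast this

end Cfsg.Agent.Lib.Theta
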